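import Cfsg.Agent.Lib.TC.D.HeH.Rels
import Cfsg.Agent.Lib.TC.D.HeH.S1
import Cfsg.Agent.Lib.TC.D.HeH.S2
import Cfsg.Agent.Lib.TC.D.HeH.S3
import Cfsg.Agent.Lib.TC.D.HeH.S4
import Cfsg.Agent.Lib.TC.D.HeH.S5

namespace Cfsg.Agent.Lib.TC.D.HeH.Bound

open Cfsg.Agent.Lib.TC.Core Cfsg.Agent.Lib.TC.Enc Cfsg.Agent.Lib.TC.Pres Cfsg.Agent.Lib.TC.Perm Cfsg.Agent.Lib.TC.Main Cfsg.Agent.Lib.TC.Chain Cfsg.Agent.Lib.TC.SubPres Cfsg.Agent.Lib.TC.Iso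

set_option maxRecDepth 100000

open Cfsg.Agent.Lib.TC.D.HeH.Rels

/-- The letters. -/
noncomputable abbrev E' : Nat → PresentedGroup Rp := Kp.E Rp

theorem hrel0 : ∀ l ∈ relsH, prodA E' l = 1 := rel_prodA_one hv hrelsp

theorem hinv0 : ∀ c, c < 5 → E' c = (E' c)⁻¹ := fun c hc => (Cols.E_inv hv c hc).2

theorem top : Lt E' Cfsg.Agent.Lib.TC.D.HeH.S1_Tab.ls = ⊤ := by
  rw [eq_top_iff, ← Cols.closure_E hv]
  apply Subgroup.closure_mono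
  rintro _ ⟨c, hc, rfl⟩
  have hc' : c < 5 := hc
  refine ⟨c, ?_, rfl⟩
  clear hc
  change c ∈ Cfsg.Agent.Lib.TC.D.HeH.S1_Tab.ls
  revert c
  decide +kernel

theorem bound : Nat.card (PresentedGroup Rp) ≠ 0 ∧ Nat.card (PresentedGroup Rp) ≤ 1958400 := by
  have b0 := bound_nil E'
  have h0 : Lt E' Cfsg.Agent.Lib.TC.D.HeH.S5_Tab.ls' = Lt E' [] := rfl
  rw [← h0] at b0
  have s0 := stage_spec E' (fun c => c) relsH Cfsg.Agent.Lib.TC.D.HeH.S5_Tab.ls Cfsg.Agent.Lib.TC.D.HeH.S5_Tab.ls' Cfsg.Agent.Lib.TC.D.HeH.S5_Tab.inv' Cfsg.Agent.Lib.TC.D.HeH.S5_Tab.rels' Cfsg.Agent.Lib.TC.D.HeH.S5_Tab.subs' Cfsg.Agent.Lib.TC.D.HeH.S5_Tab.witT.get Cfsg.Agent.Lib.TC.D.HeH.S5_Tab.cert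
    (fun c hc => hinv0 c (by revert c; decide +kernel)) hrel0 (by decide) (by decide +kernel)
    (by decide +kernel) (by decide +kernel) Cfsg.Agent.Lib.TC.D.HeH.S5.hchecked
  rw [Cfsg.Agent.Lib.TC.D.HeH.S5.hcount] at s0
  have b1 := bound_up s0 b0
  have s1 := stage_spec E' (fun c => c) relsH Cfsg.Agent.Lib.TC.D.HeH.S4_Tab.ls Cfsg.Agent.Lib.TC.D.HeH.S4_Tab.ls' Cfsg.Agent.Lib.TC.D.HeH.S4_Tab.inv' Cfsg.Agent.Lib.TC.D.HeH.S4_Tab.rels' Cfsg.Agent.Lib.TC.D.HeH.S4_Tab.subs' Cfsg.Agent.Lib.TC.D.HeH.S4_Tab.witT.get Cfsg.Agent.Lib.TC.D.HeH.S4_Tab.cert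
    (fun c hc => hinv0 c (by revert c; decide +kernel)) hrel0 (by decide) (by decide +kernel)
    (by decide +kernel) (by decide +kernel) Cfsg.Agent.Lib.TC.D.HeH.S4.hchecked
  rw [Cfsg.Agent.Lib.TC.D.HeH.S4.hcount] at s1
  have b2 := bound_up s1 b1
  have s2 := stage_spec E' (fun c => c) relsH Cfsg.Agent.Lib.TC.D.HeH.S3_Tab.ls Cfsg.Agent.Lib.TC.D.HeH.S3_Tab.ls' Cfsg.Agent.Lib.TC.D.HeH.S3_Tab.inv' Cfsg.Agent.Lib.TC.D.HeH.S3_Tab.rels' Cfsg.Agent.Lib.TC.D.HeH.S3_Tab.subs' Cfsg.Agent.Lib.TC.D.HeH.S3_Tab.witT.get Cfsg.Agent.Lib.TC.D.HeH.S3_Tab.cert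
    (fun c hc => hinv0 c (by revert c; decide +kernel)) hrel0 (by decide) (by decide +kernel)
    (by decide +kernel) (by decide +kernel) Cfsg.Agent.Lib.TC.D.HeH.S3.hchecked
  rw [Cfsg.Agent.Lib.TC.D.HeH.S3.hcount] at s2
  have b3 := bound_up s2 b2
  have s3 := stage_spec E' (fun c => c) relsH Cfsg.Agent.Lib.TC.D.HeH.S2_Tab.ls Cfsg.Agent.Lib.TC.D.HeH.S2_Tab.ls' Cfsg.Agent.Lib.TC.D.HeH.S2_Tab.inv' Cfsg.Agent.Lib.TC.D.HeH.S2_Tab.rels' Cfsg.Agent.Lib.TC.D.HeH.S2_Tab.subs' Cfsg.Agent.Lib.TC.D.HeH.S2_Tab.witT.get Cfsg.Agent.Lib.TC.D.HeH.S2_Tab.cert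
    (fun c hc => hinv0 c (by revert c; decide +kernel)) hrel0 (by decide) (by decide +kernel)
    (by decide +kernel) (by decide +kernel) Cfsg.Agent.Lib.TC.D.HeH.S2.hchecked
  rw [Cfsg.Agent.Lib.TC.D.HeH.S2.hcount] at s3
  have b4 := bound_up s3 b3
  have s4 := stage_spec E' (fun c => c) relsH Cfsg.Agent.Lib.TC.D.HeH.S1_Tab.ls Cfsg.Agent.Lib.TC.D.HeH.S1_Tab.ls' Cfsg.Agent.Lib.TC.D.HeH.S1_Tab.inv' Cfsg.Agent.Lib.TC.D.HeH.S1_Tab.rels' Cfsg.Agent.Lib.TC.D.HeH.S1_Tab.subs' Cfsg.Agent.Lib.TC.D.HeH.S1_Tab.witT.get Cfsg.Agent.Lib.TC.D.HeH.S1_Tab.cert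
    (fun c hc => hinv0 c (by revert c; decide +kernel)) hrel0 (by decide) (by decide +kernel)
    (by decide +kernel) (by decide +kernel) Cfsg.Agent.Lib.TC.D.HeH.S1.hchecked
  rw [Cfsg.Agent.Lib.TC.D.HeH.S1.hcount] at s4
  have b5 := bound_up s4 b4
  rw [top, Subgroup.card_top] at b5
  exact b5

end Cfsg.Agent.Lib.TC.D.HeH.Bound
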