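import Cfsg.Agent.Lib.TC.Enc

namespace Cfsg.Agent.Lib.TC.D.HeH.S3_T0

open Cfsg.Agent.Lib.TC.Enc

set_option maxRecDepth 100000

/-- A part of a table. -/
noncomputable def tree : Tr Nat :=
  (Tr.leaf (nat_lit 0xa8000903a849b8c7b8990002402e00a5e3a9f200009069700a74186d700024221909d8025a94000903550085c165a4000240d1125921dd51000090074d053c1439300024019008cc014d08000906328042c12251000242087084600c88000090300c02147110000024004294019000))

end Cfsg.Agent.Lib.TC.D.HeH.S3_T0
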