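import Cfsg.Agent.Lib.TC.Enc

namespace Cfsg.Agent.Lib.TC.D.HeH.S4_T0

open Cfsg.Agent.Lib.TC.Enc

set_option maxRecDepth 100000

/-- A part of a table. -/
noncomputable def tree : Tr Nat :=
  (Tr.leaf (nat_lit 0x1800028289126638001404c42f058000a099c0878a000500ed0ab1400028245019618001402a426848000a088c0438200050065089100002820100860000140084a00))

end Cfsg.Agent.Lib.TC.D.HeH.S4_T0
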