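import Cfsg.Agent.Lib.TC.D.HeH.Wd
import Cfsg.Agent.Lib.PrimeGraph.G24Field
import Cfsg.Agent.Lib.Classical.SympForm
import Cfsg.Agent.Lib.Classical.SympCount

/-! The presented group on five letters of the Held group and `Sp₄(4) : 2`. -/

namespace Cfsg.Agent.Lib.TC.D.HeH.Tgt

open Cfsg.Agent.Lib.TC.Core Cfsg.Agent.Lib.TC.Pres Cfsg.Agent.Lib.TC.Main Cfsg.Agent.Lib.TC.Chain
  Cfsg.Agent.Lib.TC.Iso Cfsg.Agent.Lib.TC.D.HeH.Rels Cfsg.Agent.Lib.PrimeGraph.G24Field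
  Cfsg.Agent.Lib.Classical.SympForm
open scoped Matrix
open K4

set_option maxRecDepth 100000

/-- The coordinates. -/
abbrev ι := Fin 2 ⊕ Fin 2

/-- The matrices. -/
abbrev M4 := Matrix ι ι K4

/-- The symplectic group. -/
abbrev Sp := Matrix.symplecticGroup (Fin 2) K4

/-- The group of order two. -/
abbrev C2 := Multiplicative (ZMod 2)

/-- The Frobenius map of the field. -/
def frK : K4 →+* K4 where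
  toFun x := x * x
  map_one' := by decide
  map_mul' := by decide
  map_zero' := by decide
  map_add' := by decide

theorem frK_frK (x : K4) : frK (frK x) = x := by
  revert x
  decide

/-- The Frobenius map on matrices. -/
def frM (A : M4) : M4 := A.map frK

theorem frM_mul (A B : M4) : frM (A * B) = frM A * frM B :=
  Matrix.map_mul

theorem frM_frM (A : M4) : frM (frM A) = A := by
  ext i j
  exact frK_frK _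

/-- The Frobenius map on the symplectic group. -/
def frS : Sp ≃* Sp where
  toFun A := ⟨frM A.1, SymplecticGroup.map_mem A.2 frK⟩
  invFun A := ⟨frM A.1, SymplecticGroup.map_mem A.2 frK⟩
  left_inv A := Subtype.ext (frM_frM A.1)
  right_inv A := Subtype.ext (frM_frM A.1)
  map_mul' A B := Subtype.ext (frM_mul A.1 B.1)

theorem frS_val (A : Sp) : ((frS A : Sp) : M4) = frM A.1 := rfl

/-- The power of the Frobenius map. -/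
def fp (ε : C2) : MulAut Sp := if ε = 1 then 1 else frS

theorem fp_one : fp 1 = 1 := if_pos rfl

theorem fp_gen : fp (Multiplicative.ofAdd 1) = frS := if_neg (by decide)

theorem C2_cases (ε : C2) : ε = 1 ∨ ε = Multiplicative.ofAdd 1 := by
  revert ε
  decide

theorem fp_mul (a b : C2) : fp (a * b) = fp a * fp b := by
  rcases C2_cases a with rfl | rfl <;> rcases C2_cases b with rfl | rfl
  · simp [fp_one]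
  · simp [fp_one]
  · simp [fp_one]
  · rw [fp_gen]
    have h : (Multiplicative.ofAdd (1 : ZMod 2) * Multiplicative.ofAdd 1 : C2) = 1 := by decide
    rw [h, fp_one]
    ext1 A
    exact Subtype.ext (frM_frM A.1).symm

/-- The action. -/
def phi : C2 →* MulAut Sp := MonoidHom.mk' fp fp_mul

/-- The semidirect product. -/
abbrev T := Sp ⋊[phi] C2

/-- The matrices of the letters. -/
def tblA : List (List (List K4)) :=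
  [[[e,o,o,o],[o,e,o,o],[e,v,e,o],[v,w,o,e]],
   [[e,e,o,e],[e,o,e,e],[o,e,e,e],[e,e,e,o]],
   [[v,e,o,o],[v,v,o,o],[v,o,v,v],[o,e,e,v]],
   [[o,v,e,v],[v,o,w,e],[e,w,o,w],[v,e,w,o]],
   [[e,o,w,v],[o,e,v,e],[v,w,e,o],[w,e,o,e]]]

/-- The parities of the letters. -/
def tblE : List Bool := [false,false,false,true,false]

/-- The words of the transvections. -/
def tblW : List (List Nat) :=
  [[],
   [1,4,2,1,4,2,1,0,1,0,1,0,1,2,4,1,2,4,1],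
   [1,2,1,4,1,2,0,1,0,1,0,2,1,4,1,2,1],
   [1,4,2,1,4,2,4,0,1,0,1,0,4,2,4,1,2,4,1],
   [1,4,1,2,1,4,2,0,1,0,1,0,2,4,1,2,1,4,1],
   [1,2,4,1,2,0,1,0,1,0,2,1,4,2,1],
   [2,4,1,2,1,4,1,2,4,0,1,0,1,0,4,2,1,4,1,2,1,4,2],
   [1,1,0,1,1],
   [4,1,2,1,4,1,2,4,0,1,0,1,0,4,2,1,4,1,2,1,4],
   [1,4,0,1,0,1,0,1,0,1,0,4,1],
   [1,2,4,3,1,2,1,0,1,0,1,0,1,2,1,3,4,2,1],
   [2,4,1,2,1,4,1,2,1,0,1,0,1,0,1,2,1,4,1,2,1,4,2],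
   [4,1,2,1,4,1,2,1,0,1,0,1,0,1,2,1,4,1,2,1,4],
   [2,1,4,1,2,1,4,2,0,1,0,1,0,2,4,1,2,1,4,1,2],
   [3,1,1,0,1,1,3],
   [1,2,4,1,0,3,2,1,0,1,2,3,0,1,4,2,1],
   [1,4,3,2,0,1,0,1,0,2,3,4,1],
   [2,4,0,1,0,1,0,1,0,1,0,4,2],
   [4,2,4,0,1,2,4,0,1,0,1,0,4,2,1,0,4,2,4],
   [4,0,1,2,4,0,1,0,1,0,4,2,1,0,4],
   [1,2,4,2,0,1,0,1,0,2,4,2,1],
   [4,1,2,1,4,2,0,1,0,1,0,2,4,1,2,1,4],
   [2,1,0,1,0,1,0,1,2],
   [3,0,1,4,2,0,1,0,1,0,2,4,1,0,3],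
   [2,0,1,0,1,0,1,0,1,0,2],
   [1,4,3,1,2,0,1,0,1,0,2,1,3,4,1],
   [1,0,1,4,2,0,1,0,1,0,2,4,1,0,1],
   [4,2,1,0,1,4,2,0,1,0,1,0,2,4,1,0,1,2,4],
   [4,2,4,1,2,4,0,1,0,1,0,4,2,1,4,2,4],
   [4,1,2,4,0,1,0,1,0,4,2,1,4],
   [0,1,4,3,2,0,1,0,1,0,2,3,4,1,0],
   [3,2,1,0,1,0,1,0,1,2,3],
   [1,4,2,4,0,1,0,1,0,4,2,4,1],
   [4,0,1,2,1,0,1,0,1,0,1,2,1,0,4],
   [3,2,1,0,1,2,3],
   [4,2,4,0,1,2,1,0,1,0,1,0,1,2,1,0,4,2,4],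
   [4,2,4,1,2,1,0,1,0,1,0,1,2,1,4,2,4],
   [0,3,2,1,0,1,2,3,0],
   [4,1,2,1,0,1,0,1,0,1,2,1,4],
   [0,1,4,2,4,0,1,0,1,0,4,2,4,1,0],
   [1,2,4,3,2,1,0,1,0,1,0,1,2,3,4,2,1],
   [1,4,0,1,2,0,1,0,1,0,2,1,0,4,1],
   [4,1,2,1,4,3,2,1,0,1,0,1,0,1,2,3,4,1,2,1,4],
   [3,2,0,1,0,1,0,2,3],
   [2,4,3,1,0,1,3,4,2],
   [1,2,4,3,0,1,2,0,1,0,1,0,2,1,0,3,4,2,1],
   [1,4,1,2,4,0,1,0,1,0,4,2,1,4,1],
   [4,3,0,3,1,2,1,0,1,0,1,0,1,2,1,3,0,3,4],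
   [1,4,2,1,0,1,0,1,0,1,2,4,1],
   [1,2,1,4,0,1,2,0,1,0,1,0,2,1,0,4,1,2,1],
   [4,0,3,1,2,0,1,0,1,0,2,1,3,0,4],
   [2,1,0,1,2],
   [2,4,1,0,1,4,2],
   [4,3,0,1,2,0,1,0,1,0,2,1,0,3,4],
   [4,2,4,3,0,1,2,0,1,0,1,0,2,1,0,3,4,2,4],
   [1,4,1,2,1,0,1,0,1,0,1,2,1,4,1],
   [4,2,4,3,1,2,0,1,0,1,0,2,1,3,4,2,4],
   [0,1,4,2,1,0,1,0,1,0,1,2,4,1,0],
   [2,0,1,0,1,0,2],
   [4,3,1,2,0,1,0,1,0,2,1,3,4],
   [1,2,4,0,3,2,1,0,1,2,3,0,4,2,1],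
   [2,4,0,1,0,1,0,4,2],
   [0,1,4,1,2,1,0,1,0,1,0,1,2,1,4,1,0],
   [4,1,2,1,4,0,3,2,1,0,1,2,3,0,4,1,2,1,4],
   [1,4,3,1,2,1,0,1,0,1,0,1,2,1,3,4,1],
   [2,4,1,2,0,1,0,1,0,2,1,4,2],
   [4,2,4,3,1,0,1,3,4,2,4],
   [3,0,3,0,1,2,0,1,0,1,0,2,1,0,3,0,3],
   [3,0,3,1,2,0,1,0,1,0,2,1,3,0,3],
   [4,3,2,0,1,0,1,0,2,3,4],
   [2,4,0,1,2,0,1,0,1,0,2,1,0,4,2],
   [3,0,1,4,2,1,0,1,0,1,0,1,2,4,1,0,3],
   [2,4,3,0,3,1,2,0,1,0,1,0,2,1,3,0,3,4,2],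
   [0,1,4,3,2,1,0,1,0,1,0,1,2,3,4,1,0],
   [0,1,2,0,1,0,1,0,2,1,0],
   [4,0,3,2,1,0,1,2,3,0,4],
   [4,3,2,1,0,1,2,3,4],
   [1,2,0,1,0,1,0,2,1],
   [1,4,3,2,1,0,1,0,1,0,1,2,3,4,1],
   [2,1,4,2,4,2,0,1,0,1,0,2,4,2,4,1,2],
   [2,4,2,0,1,0,1,0,2,4,2],
   [4,3,1,2,1,0,1,0,1,0,1,2,1,3,4],
   [3,0,1,2,0,1,0,1,0,2,1,0,3],
   [2,1,4,0,3,2,1,0,1,2,3,0,4,1,2],
   [4,2,1,4,2,1,0,1,0,1,0,1,2,4,1,2,4],
   [0,3,1,2,0,1,0,1,0,2,1,3,0],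
   [1,2,4,2,1,0,1,0,1,0,1,2,4,2,1],
   [4,2,4,2,0,1,0,1,0,2,4,2,4],
   [4,0,3,1,2,1,0,1,0,1,0,1,2,1,3,0,4],
   [2,4,2,1,0,1,2,4,2],
   [2,0,1,4,0,3,2,1,0,1,2,3,0,4,1,0,2],
   [0,3,0,1,2,0,1,0,1,0,2,1,0,3,0],
   [3,1,2,0,1,0,1,0,2,1,3],
   [4,2,0,1,4,2,1,0,1,0,1,0,1,2,4,1,0,2,4],
   [4,2,4,2,1,0,1,2,4,2,4],
   [4,3,0,1,2,1,0,1,0,1,0,1,2,1,0,3,4],
   [2,1,4,3,2,1,0,1,2,3,4,1,2],
   [1,0,3,1,2,1,0,1,0,1,0,1,2,1,3,0,1],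
   [4,1,2,1,4,1,2,0,1,0,1,0,2,1,4,1,2,1,4],
   [4,1,0,1,2,0,1,0,1,0,2,1,0,1,4],
   [2,4,1,0,1,2,0,1,0,1,0,2,1,0,1,4,2],
   [1,2,4,1,2,1,0,1,0,1,0,1,2,1,4,2,1],
   [4,2,4,1,2,0,1,0,1,0,1,0,1,0,2,1,4,2,4],
   [1,4,0,3,1,2,0,1,0,1,0,2,1,3,0,4,1],
   [3,1,0,3,1,2,1,0,1,0,1,0,1,2,1,3,0,1,3],
   [2,1,4,0,3,1,2,0,1,0,1,0,2,1,3,0,4,1,2],
   [1,2,4,2,1,0,1,2,4,2,1],
   [2,4,1,2,1,4,1,2,0,1,0,1,0,2,1,4,1,2,1,4,2],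
   [1,2,1,4,1,2,1,0,1,0,1,0,1,2,1,4,1,2,1],
   [1,2,1,4,2,1,0,1,2,4,1,2,1],
   [1,4,3,2,1,0,1,2,3,4,1],
   [1,2,0,1,0,1,0,1,0,1,0,2,1],
   [3,1,0,1,0,1,0,1,3],
   [2,1,4,3,2,0,1,0,1,0,2,3,4,1,2],
   [2,1,0,1,4,2,0,1,0,1,0,2,4,1,0,1,2],
   [4,1,2,1,4,3,2,0,1,0,1,0,2,3,4,1,2,1,4],
   [4,2,4,0,1,0,3,2,1,0,1,2,3,0,1,0,4,2,4],
   [2,4,1,2,4,0,1,0,1,0,4,2,1,4,2],
   [3,2,0,1,4,2,0,1,0,1,0,2,4,1,0,2,3],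
   [0,1,0,1,0,1,0,1,0],
   [4,2,1,4,2,0,1,0,1,0,2,4,1,2,4],
   [1,0,1,0,1,0,1],
   [4,2,4,1,0,3,2,1,0,1,2,3,0,1,4,2,4],
   [2,4,0,1,2,4,0,1,0,1,0,4,2,1,0,4,2],
   [1,2,1,4,2,0,1,0,1,0,2,4,1,2,1],
   [1,2,0,1,4,3,2,1,0,1,0,1,0,1,2,3,4,1,0,2,1],
   [4,0,1,0,1,0,1,0,1,0,4],
   [2,0,1,4,3,2,0,1,0,1,0,2,3,4,1,0,2],
   [1,4,1,0,3,2,1,0,1,2,3,0,1,4,1],
   [0,3,0,1,2,1,0,1,0,1,0,1,2,1,0,3,0],
   [2,4,3,1,2,1,0,1,0,1,0,1,2,1,3,4,2],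
   [4,2,4,1,0,1,4,2,4],
   [4,2,1,0,1,2,4],
   [1,2,1,4,2,1,0,1,0,1,0,1,2,4,1,2,1],
   [3,1,2,1,0,1,0,1,0,1,2,1,3],
   [1,4,0,3,2,1,0,1,2,3,0,4,1],
   [3,0,1,2,1,0,1,0,1,0,1,2,1,0,3],
   [3,0,1,4,2,4,0,1,0,1,0,4,2,4,1,0,3],
   [4,2,4,0,1,0,1,0,4,2,4],
   [2,4,0,3,1,2,1,0,1,0,1,0,1,2,1,3,0,4,2],
   [2,4,3,0,1,2,1,0,1,0,1,0,1,2,1,0,3,4,2],
   [4,2,0,1,0,1,0,2,4],
   [0,1,4,0,3,2,1,0,1,2,3,0,4,1,0],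
   [0,3,1,2,1,0,1,0,1,0,1,2,1,3,0],
   [0,3,1,0,1,3,0],
   [4,2,1,4,2,4,2,0,1,0,1,0,2,4,2,4,1,2,4],
   [2,1,4,2,4,0,1,0,1,0,4,2,4,1,2],
   [2,4,3,0,3,1,2,1,0,1,0,1,0,1,2,1,3,0,3,4,2],
   [1,2,1,4,3,2,1,0,1,0,1,0,1,2,3,4,1,2,1],
   [2,0,1,4,2,4,0,1,0,1,0,4,2,4,1,0,2],
   [1,2,0,1,4,0,3,2,1,0,1,2,3,0,4,1,0,2,1],
   [3,1,0,1,3],
   [4,2,4,0,1,2,0,1,0,1,0,2,1,0,4,2,4],
   [4,3,1,0,1,3,4],
   [2,4,1,2,1,0,1,0,1,0,1,2,1,4,2],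
   [2,1,4,0,1,2,0,1,0,1,0,2,1,0,4,1,2],
   [2,1,4,1,2,4,0,1,0,1,0,4,2,1,4,1,2],
   [2,4,0,1,2,1,0,1,0,1,0,1,2,1,0,4,2],
   [3,0,1,0,1,0,3],
   [4,2,4,1,2,0,1,0,1,0,2,1,4,2,4],
   [2,4,3,2,1,0,1,0,1,0,1,2,3,4,2],
   [2,1,4,2,0,1,0,1,0,2,4,1,2],
   [4,1,0,3,2,1,0,1,2,3,0,1,4],
   [3,0,1,0,3,2,1,0,1,2,3,0,1,0,3],
   [1,2,4,0,1,0,1,0,4,2,1],
   [0,1,2,4,3,2,0,1,0,1,0,2,3,4,2,1,0],
   [2,0,1,4,1,2,0,1,0,1,0,2,1,4,1,0,2],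
   [1,4,2,0,1,0,1,0,1,0,1,0,2,4,1],
   [2,1,4,1,2,0,1,0,1,0,2,1,4,1,2],
   [2,4,2,1,0,1,0,1,0,1,2,4,2],
   [0,1,2,4,0,1,0,1,0,4,2,1,0],
   [1,2,4,3,2,0,1,0,1,0,2,3,4,2,1],
   [4,0,1,0,3,2,1,0,1,2,3,0,1,0,4],
   [4,1,2,4,2,0,1,0,1,0,2,4,2,1,4],
   [1,4,1,2,0,1,0,1,0,1,0,1,0,2,1,4,1],
   [2,0,1,4,2,0,1,0,1,0,2,4,1,0,2],
   [2,1,4,2,1,0,1,2,4,1,2],
   [1,0,1,4,2,1,0,1,0,1,0,1,2,4,1,0,1],
   [1,0,1,0,3,2,1,0,1,2,3,0,1,0,1],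
   [1,4,2,1,4,2,4,2,0,1,0,1,0,2,4,2,4,1,2,4,1],
   [1,4,2,1,4,2,0,1,0,1,0,2,4,1,2,4,1],
   [1,2,4,3,1,0,1,3,4,2,1],
   [2,4,1,2,0,1,0,1,0,1,0,1,0,2,1,4,2],
   [1,4,2,1,0,1,2,4,1],
   [2,1,0,1,4,2,1,0,1,0,1,0,1,2,4,1,0,1,2],
   [1,4,0,1,2,4,0,1,0,1,0,4,2,1,0,4,1],
   [1,2,4,3,1,2,0,1,0,1,0,2,1,3,4,2,1],
   [4,1,2,1,4,3,2,1,0,1,2,3,4,1,2,1,4],
   [3,1,0,1,2,0,1,0,1,0,2,1,0,1,3],
   [4,2,1,4,1,2,1,4,2,0,1,0,1,0,2,4,1,2,1,4,1,2,4],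
   [1,4,3,0,3,1,2,0,1,0,1,0,2,1,3,0,3,4,1],
   [4,1,2,0,1,0,1,0,1,0,1,0,2,1,4],
   [1,4,1,2,0,1,0,1,0,2,1,4,1],
   [4,2,0,1,0,1,0,1,0,1,0,2,4],
   [1,0,3,0,1,2,0,1,0,1,0,2,1,0,3,0,1],
   [2,4,1,0,3,2,1,0,1,2,3,0,1,4,2],
   [1,2,4,0,3,1,2,0,1,0,1,0,2,1,3,0,4,2,1],
   [0,1,0,3,2,1,0,1,2,3,0,1,0],
   [4,3,2,1,0,1,0,1,0,1,2,3,4],
   [0,1,4,2,0,1,0,1,0,2,4,1,0],
   [4,2,4,0,1,0,1,0,1,0,1,0,4,2,4],
   [1,4,2,0,1,0,1,0,2,4,1],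
   [1,2,1,4,3,2,0,1,0,1,0,2,3,4,1,2,1],
   [1,0,3,2,1,0,1,2,3,0,1],
   [3,0,1,2,4,0,1,0,1,0,4,2,1,0,3],
   [2,4,0,1,0,3,2,1,0,1,2,3,0,1,0,4,2],
   [0,1,4,1,2,0,1,0,1,0,2,1,4,1,0],
   [4,2,1,0,1,0,1,0,1,2,4],
   [1,2,4,1,2,0,1,0,1,0,1,0,1,0,2,1,4,2,1],
   [1,4,1,2,1,4,2,1,0,1,0,1,0,1,2,4,1,2,1,4,1],
   [1,0,1,4,3,2,0,1,0,1,0,2,3,4,1,0,1],
   [1,0,1,2,0,1,0,1,0,2,1,0,1],
   [3,1,0,1,0,3,2,1,0,1,2,3,0,1,0,1,3],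
   [1,2,4,3,2,1,0,1,2,3,4,2,1],
   [2,1,4,1,2,1,4,2,1,0,1,0,1,0,1,2,4,1,2,1,4,1,2],
   [1,4,3,0,1,2,1,0,1,0,1,0,1,2,1,0,3,4,1],
   [1,2,1,4,1,2,4,0,1,0,1,0,4,2,1,4,1,2,1],
   [1,4,2,4,0,1,0,1,0,1,0,1,0,4,2,4,1],
   [1,2,4,1,0,1,4,2,1],
   [1,2,1,4,3,2,1,0,1,2,3,4,1,2,1],
   [4,3,1,0,1,2,0,1,0,1,0,2,1,0,1,3,4],
   [4,1,2,1,4,2,1,0,1,2,4,1,2,1,4],
   [1,4,0,1,2,1,0,1,0,1,0,1,2,1,0,4,1],
   [1,2,4,1,2,4,0,1,0,1,0,4,2,1,4,2,1],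
   [0,1,0,1,0],
   [2,4,3,0,1,2,0,1,0,1,0,2,1,0,3,4,2],
   [4,1,2,1,4,2,1,0,1,0,1,0,1,2,4,1,2,1,4],
   [2,1,4,2,1,0,1,0,1,0,1,2,4,1,2],
   [2,1,4,1,2,1,0,1,0,1,0,1,2,1,4,1,2],
   [4,2,4,3,1,2,1,0,1,0,1,0,1,2,1,3,4,2,4],
   [2,4,0,3,1,2,0,1,0,1,0,2,1,3,0,4,2],
   [4,0,1,0,1,0,4],
   [1,2,1,4,0,3,2,1,0,1,2,3,0,4,1,2,1],
   [1,0,1],
   [2,0,1,4,2,1,0,1,0,1,0,1,2,4,1,0,2],
   [1,2,0,1,4,2,0,1,0,1,0,2,4,1,0,2,1],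
   [1,2,4,0,1,2,0,1,0,1,0,2,1,0,4,2,1],
   [2,0,1,4,1,2,1,0,1,0,1,0,1,2,1,4,1,0,2],
   [4,1,0,1,4],
   [2,4,3,1,2,0,1,0,1,0,2,1,3,4,2],
   [2,4,0,3,2,1,0,1,2,3,0,4,2],
   [3,0,3,1,2,1,0,1,0,1,0,1,2,1,3,0,3],
   [2,1,4,3,2,1,0,1,0,1,0,1,2,3,4,1,2],
   [4,1,2,0,1,0,1,0,2,1,4],
   [4,0,1,2,0,1,0,1,0,2,1,0,4],
   [2,0,1,4,3,2,1,0,1,0,1,0,1,2,3,4,1,0,2],
   [1,0,3,0,1,2,1,0,1,0,1,0,1,2,1,0,3,0,1],
   [2,4,3,2,1,0,1,2,3,4,2],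
   [1,2,1,0,1,0,1,0,1,2,1],
   [4,2,4,3,2,1,0,1,2,3,4,2,4],
   [4,3,0,3,1,2,0,1,0,1,0,2,1,3,0,3,4],
   [1,2,0,1,4,2,1,0,1,0,1,0,1,2,4,1,0,2,1],
   [4,2,1,4,2,4,0,1,0,1,0,4,2,4,1,2,4],
   [1,4,2,4,2,0,1,0,1,0,2,4,2,4,1],
   [2,4,3,2,0,1,0,1,0,2,3,4,2],
   [0,1,2,1,0,1,0,1,0,1,2,1,0]]

/-- The number of a coordinate. -/
def idx : ι → Nat
  | .inl i => i.val
  | .inr i => 2 + i.val

/-- The matrix of a letter. -/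
def A (c : Nat) : M4 := Matrix.of fun i j => ((tblA.getD c []).getD (idx i) []).getD (idx j) o

theorem hA : ∀ c, c < 5 → A c ∈ Sp := by
  intro c hc
  rw [SymplecticGroup.mem_iff]
  revert c
  decide +kernel

/-- An element of the symplectic group. -/
def mkS (X : M4) (h : X ∈ Sp) : Sp := ⟨X, h⟩

/-- The letter in the symplectic group. -/
def gS (c : Nat) : Sp := if h : c < 5 then mkS (A c) (hA c h) else 1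

theorem gS_val {c : Nat} (h : c < 5) : (gS c : M4) = A c := by
  rw [gS, dif_pos h]
  rfl

/-- The parity. -/
def par (b : Bool) : C2 := if b then Multiplicative.ofAdd 1 else 1

/-- The letter in the semidirect product. -/
def t (c : Nat) : T := ⟨gS c, par (tblE.getD c false)⟩

/-- The product along a word, with its parity. -/
def RW : List Nat → M4 × Bool
  | [] => (1, false)
  | z :: l => ((RW l).1 * (if (RW l).2 then frM (A z) else A z), xor (RW l).2 (tblE.getD z false))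

theorem par_xor (a b : Bool) : par a * par b = par (xor a b) := by
  revert a b
  decide

theorem prodA_t (l : List Nat) (hl : ∀ z ∈ l, z < 5) :
    ∃ s : Sp, (s : M4) = (RW l).1 ∧ prodA t l = ⟨s, par (RW l).2⟩ := by
  induction l with
  | nil => exact ⟨1, rfl, rfl⟩
  | cons z l ih =>
    obtain ⟨s, hs, hp⟩ := ih (fun y hy => hl y (by simp [hy]))
    have hz : z < 5 := hl z (by simp)
    rw [prodA_cons, hp]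
    cases hb : (RW l).2 with
    | false =>
      refine ⟨s * gS z, ?_, ?_⟩
      · change (s : M4) * (gS z : M4) = _
        rw [hs, gS_val hz]
        simp [RW, hb]
      · apply SemidirectProduct.ext
        · simp only [SemidirectProduct.mul_left, t, par, if_false]
          change s * (phi 1) (gS z) = _
          rw [map_one]
          rfl
        · simp only [SemidirectProduct.mul_right, t]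
          rw [par_xor]
          simp [RW, hb]
    | true =>
      refine ⟨s * frS (gS z), ?_, ?_⟩
      · change (s : M4) * frM (gS z : M4) = _
        rw [hs, gS_val hz]
        simp [RW, hb]
      · apply SemidirectProduct.ext
        · simp only [SemidirectProduct.mul_left, t, par, if_true]
          change s * fp (Multiplicative.ofAdd 1) (gS z) = _
          rw [fp_gen]
        · simp only [SemidirectProduct.mul_right, t]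
          rw [par_xor]
          simp [RW, hb]

theorem relChk : ∀ l ∈ relsH, RW l = (1, false) := by decide +kernel

theorem t_rel : ∀ l ∈ relsH, prodA t l = 1 := by
  intro l hl
  obtain ⟨s, hs, hp⟩ := prodA_t l (hk l hl)
  rw [hp, relChk l hl]
  apply SemidirectProduct.ext
  · apply Subtype.ext
    rw [hs, relChk l hl]
    rfl
  · rfl

theorem exists_psi : ∃ ψ : PresentedGroup Rp →* T, ∀ c, c < Kp.k → ψ (Kp.E Rp c) = t c := by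
  refine exists_hom_of_letters hv (SubPres.hR 5 relsH hk) t ?_ t_rel
  intro c hc
  have hc' : c < 5 := hc
  apply eq_inv_of_mul_eq_one_left
  have := t_rel [c, c] (hsq c hc')
  simpa [Kp, SubPres.K] using this

/-- The number of an element of the field. -/
def kn : K4 → Nat
  | o => 0
  | e => 1
  | w => 2
  | v => 3

/-- The word of a transvection. -/
def W (a b c d : K4) : List Nat := tblW.getD (64 * kn a + 16 * kn b + 4 * kn c + kn d) []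

/-- A vector. -/
def vec (a b c d : K4) : ι → K4
  | .inl 0 => a
  | .inl 1 => b
  | .inr 0 => c
  | .inr 1 => d

theorem W_chk : ∀ a b c d : K4, (∀ z ∈ W a b c d, z < 5) ∧
    RW (W a b c d) = (Cfsg.sympTransvection 2 (vec a b c d) 1, false) := by decide +kernel

theorem vec_eq (f : ι → K4) : f = vec (f (.inl 0)) (f (.inl 1)) (f (.inr 0)) (f (.inr 1)) := by
  funext i
  rcases i with i | i <;> fin_cases i <;> rfl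

theorem tv_mem (ψ : PresentedGroup Rp →* T) (hψ : ∀ c, c < Kp.k → ψ (Kp.E Rp c) = t c)
    (A : Sp) (f : ι → K4) (hA : (A : M4) = Cfsg.sympTransvection 2 f 1) :
    SemidirectProduct.inl A ∈ ψ.range := by
  have h := W_chk (f (.inl 0)) (f (.inl 1)) (f (.inr 0)) (f (.inr 1))
  rw [← vec_eq f] at h
  obtain ⟨h1, h2⟩ := h
  obtain ⟨s, hs, hp⟩ := prodA_t _ h1
  refine ⟨prodA (Kp.E Rp) (W (f (.inl 0)) (f (.inl 1)) (f (.inr 0)) (f (.inr 1))), ?_⟩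
  rw [hom_prodA ψ t hψ _ h1, hp, h2]
  apply SemidirectProduct.ext
  · apply Subtype.ext
    change (s : M4) = (A : M4)
    rw [hs, h2, hA]
  · rfl

theorem exists_sq : ∀ c : K4, ∃ d : K4, d * d = c := by decide

theorem tv_scal (f : ι → K4) (d : K4) :
    Cfsg.sympTransvection 2 f (d * d) = Cfsg.sympTransvection 2 (d • f) 1 := by
  unfold Cfsg.sympTransvection
  congr 1
  ext i j
  simp only [Matrix.smul_apply, Matrix.vecMulVec_apply, Matrix.mulVec_smul, Pi.smul_apply, smul_eq_mul, one_mul]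
  ring

theorem surj (ψ : PresentedGroup Rp →* T) (hψ : ∀ c, c < Kp.k → ψ (Kp.E Rp c) = t c) :
    Function.Surjective ψ := by
  have h1 : ∀ s : Sp, SemidirectProduct.inl s ∈ ψ.range := by
    intro s
    have hs : s ∈ Subgroup.closure (transvectionSet 2 K4) := by
      rw [closure_transvectionSet]
      trivial
    refine Subgroup.closure_induction (p := fun x _ => SemidirectProduct.inl x ∈ ψ.range) ?_ ?_ ?_ ?_ hs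
    · rintro x ⟨f, c, hx⟩
      obtain ⟨d, rfl⟩ := exists_sq c
      rw [tv_scal] at hx
      exact tv_mem ψ hψ x _ hx
    · rw [map_one]
      exact one_mem _
    · intro a b _ _ ha hb
      rw [map_mul]
      exact mul_mem ha hb
    · intro a _ ha
      rw [map_inv]
      exact inv_mem ha
  have h0 : t 3 ∈ ψ.range := ⟨Kp.E Rp 3, hψ 3 (by decide)⟩
  rw [← MonoidHom.range_eq_top, eq_top_iff]
  rintro ⟨p, e⟩ -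
  rcases C2_cases e with rfl | rfl
  · exact h1 p
  · have h2 := mul_mem (h1 (p * (gS 3)⁻¹)) h0
    convert h2 using 1
    apply SemidirectProduct.ext
    · simp only [SemidirectProduct.mul_left, SemidirectProduct.left_inl, SemidirectProduct.right_inl, t]
      change p = p * (gS 3)⁻¹ * (phi 1) (gS 3)
      rw [map_one]
      simp
    · rfl

theorem card_Sp : Nat.card Sp = 979200 := by
  have h := Cfsg.Agent.Lib.Classical.SympCount.card_symplecticGroup (F := K4) (q := 4)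
    (by rw [Nat.card_eq_fintype_card]; exact K4.card_eq) 2
  rw [h]
  decide

theorem card_T : Nat.card T = 1958400 := by
  rw [Nat.card_congr SemidirectProduct.equivProd, Nat.card_prod, card_Sp]
  simp [Nat.card_eq_fintype_card]

theorem equiv_T : Nonempty (PresentedGroup Rp ≃* T) := by
  obtain ⟨ψ, hψ⟩ := exists_psi
  have b := Cfsg.Agent.Lib.TC.D.HeH.Bound.bound
  have hs := surj ψ hψ
  have : Finite (PresentedGroup Rp) := Nat.finite_of_card_ne_zero b.1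
  have hc : Nat.card T ≤ Nat.card (PresentedGroup Rp) := Nat.card_le_card_of_surjective ψ hs
  rw [card_T] at hc
  have hbij := (Nat.bijective_iff_surjective_and_card ψ).2 ⟨hs, by rw [card_T]; omega⟩
  exact ⟨MulEquiv.ofBijective ψ hbij⟩

end Cfsg.Agent.Lib.TC.D.HeH.Tgt
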