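import Cfsg.Agent.Lib.TC.D.HeH.Bound
import Cfsg.Agent.Lib.TC.D.HeSp44.Ok
import Cfsg.Agent.Lib.TC.D.HeChain.Main

namespace Cfsg.Agent.Lib.TC.D.HeH.Wd

open Cfsg.Agent.Lib.TC.Core Cfsg.Agent.Lib.TC.Enc Cfsg.Agent.Lib.TC.Pres Cfsg.Agent.Lib.TC.Perm Cfsg.Agent.Lib.TC.Main Cfsg.Agent.Lib.TC.Chain Cfsg.Agent.Lib.TC.SubPres Cfsg.Agent.Lib.TC.Iso

set_option maxRecDepth 100000

open Cfsg.Agent.Lib.TC.G.He Cfsg.Agent.Lib.TC.D.HeH.Rels Cfsg.Agent.Lib.TC.D.HeSp44.Tab Cfsg.Agent.Lib.TC.Chain.PermLev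

/-- The words of the letters, as words in the generators of the subgroup. -/
def usT : List (List Nat) := [[1],[2],[4],[5],[6,3,6,6]]

/-- The word of a letter. -/
def wd (c : Nat) : List Nat := (usT.getD c []).flatMap fun i => subs.getD i []

/-- The generators of the subgroup as words in the letters. -/
def vT : List (List Nat) := [[0,1,0,1,0,1,0,1,0,1],[0],[1],[1,0,3,0,1,0,3,0,1],[2],[3],[1,0,3,0,1,0,3,0,1,4]]

/-- The letters of the group. -/
noncomputable abbrev E : Nat → PresentedGroup Rel := K.E Rel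

theorem hcard : Nat.card (PresentedGroup Rel) = 4030387200 := Cfsg.Agent.Lib.TC.D.HeChain.Main.simple_card.2

theorem one_of_fix (w : List Nat) (hw : ∀ z ∈ w, z < K.k)
    (hfix : fixAll pt (allBase [0] Cfsg.Agent.Lib.TC.D.HeChain.Lev.levels) w = true) : prodA E w = 1 :=
  word_spec Cfsg.Agent.Lib.TC.D.HeSp44.Ok.ok _ hcard (by norm_num) Cfsg.Agent.Lib.TC.D.HeChain.Lev.levels
    Cfsg.Agent.Lib.TC.D.HeChain.Lev.hlev (by decide +kernel) w hw hfix

theorem hE : ∀ c, c < K.k → E c * E c = 1 := fun c hc => by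
  have h := one_of_fix [c, c] (by simpa using hc) (by revert c; decide +kernel)
  simpa using h

theorem hrelC : ∀ l ∈ relsH, (∀ z ∈ l.flatMap wd, z < K.k) ∧
    fixAll pt (allBase [0] Cfsg.Agent.Lib.TC.D.HeChain.Lev.levels) (l.flatMap wd) = true := by decide +kernel

theorem hrelW : ∀ l ∈ relsH, prodA E (l.flatMap wd) = 1 := fun l hl =>
  one_of_fix _ (hrelC l hl).1 (hrelC l hl).2

theorem hin : ∀ c, c < 5 → prodA E (wd c) ∈ subOf K Rel subs := by
  intro c hc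
  refine prodA_mem_closure E subs _ ?_
  revert c
  decide +kernel

theorem hgenC : ∀ i, i < subs.length → (∀ z ∈ vT.getD i [], z < 5) ∧ (∀ z ∈ subs.getD i [], z < K.k) ∧
    (∀ z ∈ (vT.getD i []).flatMap wd ++ (subs.getD i []).reverse, z < K.k) ∧
    fixAll pt (allBase [0] Cfsg.Agent.Lib.TC.D.HeChain.Lev.levels)
      ((vT.getD i []).flatMap wd ++ (subs.getD i []).reverse) = true := by decide +kernel

theorem hgen : ∀ s ∈ subs, ∃ v : List Nat, (∀ z ∈ v, z < 5) ∧ prodA E (v.flatMap wd) = prodA E s := by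
  intro s hs
  obtain ⟨i, hi, rfl⟩ := List.getElem_of_mem hs
  have h0 := hgenC i hi
  rw [List.getD_eq_getElem subs [] hi] at h0
  obtain ⟨h1, h2, h3, h4⟩ := h0
  exact ⟨_, h1, eq_of_word_one E K.k hE _ _ h2 (one_of_fix _ h3 h4)⟩

theorem hindex : (subOf K Rel subs).index = 2058 := Cfsg.Agent.Lib.TC.D.HeSp44.Ok.ok.index_eq

theorem hcardH : Nat.card (subOf K Rel subs) = 1958400 := by
  have h1 := Subgroup.card_mul_index (subOf K Rel subs)
  rw [hindex] at h1
  have h2 := hcard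
  exact Nat.eq_of_mul_eq_mul_right (by norm_num : 0 < 2058) ((h1.trans h2).trans (by norm_num))

theorem exists_iso : ∃ e : PresentedGroup Rp ≃* subOf K Rel subs,
    ∀ c, c < 5 → ((e (Kp.E Rp c) : subOf K Rel subs) : PresentedGroup Rel) = prodA E (wd c) :=
  exists_equiv_words 5 relsH E wd subs _ rfl hsq hk hrelW hin hgen 1958400 Cfsg.Agent.Lib.TC.D.HeH.Bound.bound hcardH

end Cfsg.Agent.Lib.TC.D.HeH.Wd
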